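import Cfsg.Agent.Mult.Slices
import Cfsg.Agent.Co1C.Mul2D

set_option autoImplicit false
set_option Elab.async false
set_option maxRecDepth 100000
set_option linter.all false

namespace Cfsg.Agent.Co1C
open Cfsg.Agent.CGT

open Cfsg.Agent.Mult

set_option Elab.async false
theorem u2_p : ptsOK 17 [0, 10, 2, 1980, 24311] = true := by decide +kernel
theorem u2_r0 : rulesD 17 m_ts u2_ds [0, 10, 2, 1980, 24311] (u2_D.rulesRange 0 4) = true := by decide +kernel
theorem u2_r1 : rulesD 17 m_ts u2_ds [0, 10, 2, 1980, 24311] (u2_D.rulesRange 4 7) = true := by decide +kernel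
theorem u2_r2 : rulesD 17 m_ts u2_ds [0, 10, 2, 1980, 24311] (u2_D.rulesRange 11 10) = true := by decide +kernel
theorem u2_f : rulesD 17 m_ts u2_ds [0, 10, 2, 1980, 24311] u2_D.fusRules = true := by decide +kernel
theorem u2_o : sylP u2_D 17 m_ts u2_ds [(17563, [0x400000, 0x10000, 0x40]), (41995, [0x400001]), (64509, [0x1000, 0x100]), (280, [0x400000000, 0x40000000, 0x1000000]), (491, [0x1100000, 0x401004000]), (2732, [4]), (9, [0x4000000000, 0x100000000, 0x4000000, 0x400]), (29, [0x10000000000, 0x4110000000]), (140, [0x104040000]), (39, [0x105410]), (0, [0x5000000000])] [] 21 = true := by decide +kernel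

end Cfsg.Agent.Co1C
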