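import Cfsg.Agent.Mult.Slices
import Cfsg.Agent.Co1C.Mul2T0
import Cfsg.Agent.Co1C.Mul2T1

set_option autoImplicit false
set_option Elab.async false
set_option maxRecDepth 100000
set_option linter.all false

namespace Cfsg.Agent.Co1C
open Cfsg.Agent.CGT

open Cfsg.Agent.Mult

theorem u2_pb {G : Type*} [Group G] [Finite G] {φ : G →* Equiv.Perm ℕ} {γ : ℕ → G}
    (M : Model φ γ 17 m_ns m_ts) (hB : IsBase φ ⊤ [0, 10, 2, 1980, 24311]) (hN : Nat.card G = 4157776806543360000) : PBound G 2 1 :=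
  pbound_parts' (φ := φ) (k := 17) hN (by decide +kernel) (by decide +kernel)
    (PC.rules_of_range (((PC.rangeOK_of (a := 0) (m := 4) (rulesD_sound M hB u2_p u2_r0)).trans (PC.rangeOK_of (a := 4) (m := 7) (rulesD_sound M hB u2_p u2_r1))).trans (PC.rangeOK_of (a := 11) (m := 10) (rulesD_sound M hB u2_p u2_r2))) (rulesD_sound M hB u2_p u2_f))
    (sylP_sound M u2_o) u2_ok
    ((PC.chunk_of _ u2_t0).append ((PC.chunk_of _ u2_t1).append ((PC.chunk_of _ u2_t2).append (PC.chunk_of _ u2_t3))))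
    (PC.lin_of_linB u2_l)

end Cfsg.Agent.Co1C
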