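import Cfsg.Agent.Mult.Slices
import Cfsg.Agent.Co1C.Mul3D

set_option autoImplicit false
set_option Elab.async false
set_option maxRecDepth 100000
set_option linter.all false

namespace Cfsg.Agent.Co1C
open Cfsg.Agent.CGT

open Cfsg.Agent.Mult

set_option Elab.async false
theorem u3_all : allB u3_D u3_c [.assoc 4 8 4, .assoc 0x10 0x20 0x10, .assoc 0x1000 0x10 1, .assoc 0x1000 0x100 0x40, .assoc 0x1000 0x400 0x100, .assoc 0x4000 0x10 1, .assoc 0x4000 0x400 0x100, .assoc 0x10000 0x10 1, .assoc 0x10000 0x10 4, .assoc 0x10000 0x40 4, .assoc 0x1000 0x10 4, .assoc 0x1000 0x40 4, .assoc 0x1000 0x100 1, .assoc 0x4000 0x10 4, .assoc 0x40 0x10 1, .assoc 0x80 0x40 4, .assoc 0x80 0x40 0x10, .assoc 0x400 0x10 1, .assoc 0x800 0x400 0x10, .assoc 0x800 0x400 0x100, .assoc 0x400 0x100 1, .assoc 0x1000 0x100 4, .assoc 0x10 2 1, .assoc 0x100 0x40 1, .assoc 0x40 4 1, .assoc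 0x100 0x40 4, .assoc 0x40 0x10 4, .assoc 0x10 8 4, .assoc 0x100 4 1, .assoc 0x10 4 1, .assoc 0x100 0x10 1, .fus 9 [3, 0] [0, 3], .fus 9 [5, 4] [4, 5, 8], .fus 9 [4, 0] [0, 4, 5, 8], .fus 9 [6, 1] [1, 6, 7, 7, 8], .fus 9 [1, 0] [0, 1, 5, 5, 7], .fus 9 [3, 2] [2, 3, 6], .fus 9 [4, 1] [1, 4, 5, 8], .fus 9 [4, 2] [2, 4, 5, 6, 6, 7, 8], .fus 9 [1, 1, 1] [8, 8], .fus 9 [2, 2, 2] [6, 6], .fus 10 [9, 9, 9] [], .fus 10 [14, 10] [10, 14, 15], .fus 10 [11, 10] [10, 11, 13], .fus 10 [12, 10] [10, 12, 13, 15]] 17 m_ts u3_ds [0, 10, 2, 1980, 24311] [(4405, [0x1000, 0x100, 0x10]), (5840, [0x1204]), (2, [0x10000, 0x4000, 0x1140]), (4, [0x24400]), (0, [0x25885])] = true := by decide +kernel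

end Cfsg.Agent.Co1C
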