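import Cfsg.Agent.Mult.Slices
import Cfsg.Agent.Co1C.Cert_0

set_option autoImplicit false
set_option Elab.async false
set_option maxRecDepth 100000
set_option linter.all false

namespace Cfsg.Agent.Co1C
open Cfsg.Agent.CGT

open Cfsg.Agent.Mult

noncomputable def u5_D : PC := ⟨5, 4, 3, 26,
  [[0, 0x48, 0x40, 0x200], [0, 0, 0x240, 0x200], [0, 0, 0, 0x200], [0, 0, 0, 0]],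
  [7, 7, 0, 0],
  [(4, 1, 0x484), (4, 8, 0x45b), (4, 0x40, 0x280), (4, 0x200, 0x200)], 13, 0x10203020003010200010003⟩
noncomputable def u5_ds : List (List ℕ) := [[10, 1, 2, 5, 10, 4, 10, 5, 8, 10, 1, 5, 1, 10, 5, 8, 4, 8, 1, 4, 4, 6, 5, 5, 0, 8, 5, 0, 6, 2, 8, 0, 5, 6, 0, 4, 8, 1, 4, 10, 2], [6, 4, 6, 10, 4, 2, 4, 2, 10, 8, 6, 2, 4, 10, 5, 8, 4, 10, 5, 2, 6, 8, 10, 2, 5, 2, 5, 10, 6, 5, 1, 10, 6, 8, 6, 2, 1, 6, 8, 6, 10, 0, 6, 10, 0, 6, 2, 0, 6, 1, 10, 6, 4, 2, 8, 4, 1, 4, 1, 8, 1, 10, 1, 5, 8, 0, 8, 6, 4, 6, 8, 2, 10, 4, 6, 10, 6], [1, 5, 6, 0, 8, 10, 4, 4, 8, 4, 1, 10, 2, 6, 2, 10, 0, 5, 8, 5, 8, 0, 4, 4, 4, 0, 4, 1, 8, 4, 8, 0, 5, 8, 0, 6, 4, 8, 6, 8, 5, 1, 6, 8, 2, 8, 5, 0, 6, 2, 4, 1, 6, 1, 2, 8, 4, 8, 2, 4,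 1, 8, 1, 5, 6, 0, 2, 0, 4, 6], [2, 0, 10, 1, 6, 5, 6, 10, 4, 10, 5, 2, 5, 5, 0, 5, 10, 5, 10, 6, 4, 6, 0, 10, 4, 8, 5, 2, 10, 6, 8, 4, 8, 10, 2, 10, 8, 2, 8, 5, 6, 0, 5, 6, 0, 2, 5, 8, 10, 4, 0, 4, 6, 5, 2, 5, 2, 0, 6, 1, 10, 8, 0, 10, 5, 5, 1, 5, 6], [0, 4, 4, 8, 2, 10, 4, 0, 6, 4, 4, 6, 1, 6, 4, 10, 6, 5, 1, 10, 2, 6, 1, 10, 5, 10, 8, 6, 4, 0, 6, 4, 2, 4, 6, 5, 6, 8, 0, 6, 5, 8, 2, 1, 10, 0, 4, 4, 2, 4, 4, 2, 8, 1, 8, 0, 8, 2, 5, 5, 2, 5, 5, 1, 10, 0, 2, 8, 2, 8, 0, 0, 4, 6]]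
noncomputable def u5_c : Mult.Cert := ⟨343, 23, [[], [], [1], [6]],
  [],
  [[0x334f, 0, 0x1e893, 0x501bd], [0, 0x13d6f, 0, 0x2a0da], [0, 0, 0x271, 0x4c4b4], [0, 0, 0, 0x30d4]]⟩

end Cfsg.Agent.Co1C
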