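import Cfsg.Agent.Mult.Slices
import Cfsg.Agent.Co1C.Mul5D

set_option autoImplicit false
set_option Elab.async false
set_option maxRecDepth 100000
set_option linter.all false

namespace Cfsg.Agent.Co1C
open Cfsg.Agent.CGT

open Cfsg.Agent.Mult

set_option Elab.async false
theorem u5_all : allB u5_D u5_c [.assoc 0x200 8 1, .assoc 0x40 8 1, .assoc 0x100 0x40 8, .assoc 8 4 1, .fus 4 [3, 1] [1, 3], .fus 4 [2, 0] [0, 2], .fus 4 [0, 0, 0, 0, 0] [], .fus 4 [1, 1, 1, 1, 1] []] 17 m_ts u5_ds [0, 10, 2, 1980, 24311] [(25012, [8]), (88, [0x200, 0x40]), (0, [0x499])] = true := by decide +kernel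

end Cfsg.Agent.Co1C
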