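import Cfsg.Agent.Mult.Slices
import Cfsg.Agent.Co1C.Cert_0

set_option autoImplicit false
set_option Elab.async false
set_option maxRecDepth 100000
set_option linter.all false

namespace Cfsg.Agent.Co1C
open Cfsg.Agent.CGT

open Cfsg.Agent.Mult

noncomputable def u7_D : PC := ⟨7, 2, 3, 24,
  [[0, 8], [0, 0]],
  [0, 0],
  [(2, 1, 0x2c), (2, 8, 0x2e)], 9, 0x1000100000001⟩
noncomputable def u7_ds : List (List ℕ) := [[5, 0, 6, 10, 0, 6, 0, 6, 1, 6, 0, 6, 0, 10, 6, 4, 2, 1, 10, 1, 4, 4, 10, 0, 2, 5, 5, 10, 4, 8, 4, 0, 2, 5, 8, 5, 10, 4, 8, 5, 6, 0, 8, 6, 8, 1, 6, 4, 8, 4, 8, 4, 8, 0, 8, 0, 5, 0, 6, 0, 4, 0, 4, 2, 10, 6, 10, 4], [10, 6, 10, 4, 1, 4, 8, 5, 5, 10, 4, 4, 8, 6, 1, 8, 0, 10, 1, 8, 4, 6, 5, 8, 0, 5, 2, 1, 10, 6, 10, 6, 5, 8, 4, 1, 10, 5, 8, 1,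 4, 8, 2, 0, 4, 2, 1, 8, 6, 5, 8, 5, 2, 6, 0, 5, 0, 4, 2, 5, 5, 10, 8, 5], [10, 2, 10, 4, 1, 8, 4, 1, 10, 4, 6, 5, 0, 6, 0, 4, 2, 10, 1, 10, 6, 1, 8, 5, 2, 6, 0, 6, 4, 0, 2, 8, 2, 1, 5, 6, 8, 4, 6, 5, 8, 4, 4]]
noncomputable def u7_c : Mult.Cert := ⟨72, 21, [[], []],
  [],
  [[0x2d, 0xf5], [0, 0x24]]⟩

end Cfsg.Agent.Co1C
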