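import Cfsg.Agent.Mult.Slices
import Cfsg.Agent.Co1C.Mul7D

set_option autoImplicit false
set_option Elab.async false
set_option maxRecDepth 100000
set_option linter.all false

namespace Cfsg.Agent.Co1C
open Cfsg.Agent.CGT

open Cfsg.Agent.Mult

set_option Elab.async false
theorem u7_all : allB u7_D u7_c [.fus 2 [1, 0] [0, 1], .fus 2 [0, 0, 0, 0, 0, 0, 0] [], .fus 2 [1, 1, 1, 1, 1, 1, 1] []] 17 m_ts u7_ds [0, 10, 2, 1980, 24311] [(1916, [8]), (0, [1])] = true := by decide +kernel

end Cfsg.Agent.Co1C
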